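import Mathlib
import Cfsg.Agent.Lib.Helper58.QSim.MonoDefs

/-!
# QSIM (S5981): package [HMONO], part 1: orthonormal families

`K ⊇ F` finite fields, `σ` an involutory `F`-automorphism of `K`, `β` a symmetric non-degenerate
`F`-bilinear form on the `K`-space `W` with `β (a • u) v = β u (σ a • v)`.  A family `v` is
orthonormal (`ON`) if `β (a • v i) (b • v l) = δ_{il} Tr (σ a * b)`.  If every non-zero
`σ`-fixed element of `K` is a norm, there is an orthonormal `K`-basis.
-/

set_option autoImplicit false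
set_option linter.unusedSectionVars false
set_option linter.unusedVariables false

namespace Cfsg.Agent.Lib.Helper27.QSim

open Module

universe u

section field

variable {F K : Type u} [Field F] [Fintype F] [Field K] [Fintype K] [Algebra F K]

theorem tr_sigma (σ : K ≃ₐ[F] K) (c : K) : Algebra.trace F K (σ c) = Algebra.trace F K c :=
  Algebra.trace_eq_of_algEquiv σ c

theorem tr_nondeg (g : K) (h : ∀ b : K, Algebra.trace F K (b * g) = 0) : g = 0 := by
  have hnd := traceForm_nondegenerate F K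
  exact hnd.2 g (fun b => by rw [Algebra.traceForm_apply]; exact h b)

theorem riesz (φ : K →ₗ[F] F) : ∃ a : K, ∀ b : K, φ b = Algebra.trace F K (b * a) := by
  have hnd := traceForm_nondegenerate F K
  refine ⟨((Algebra.traceForm F K).toDual hnd).symm φ, fun b => ?_⟩
  have h := LinearMap.BilinForm.apply_toDual_symm_apply (B := Algebra.traceForm F K)
    (hB := hnd) φ b
  rw [Algebra.traceForm_apply] at h
  rw [← h, mul_comm]

end field

section form

variable {F K W : Type u} [Field F] [Fintype F] [Field K] [Fintype K] [Algebra F K]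
  [AddCommGroup W] [Module F W] [Module K W] [IsScalarTower F K W]
  (σ : K ≃ₐ[F] K) (β : LinearMap.BilinForm F W)

/-- Orthonormal families for the hermitian trace form. -/
def ON {j : ℕ} (v : Fin j → W) : Prop :=
  ∀ (i l : Fin j) (a b : K),
    β (a • v i) (b • v l) = if i = l then Algebra.trace F K (σ a * b) else 0

theorem riesz_W (hσσ : ∀ a, σ (σ a) = a) (v x : W) :
    ∃ a : K, ∀ b : K, β (b • v) x = Algebra.trace F K (σ b * a) := by
  let ψ : K →ₗ[F] W := (LinearMap.toSpanSingleton K W v).restrictScalars F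
  obtain ⟨a', ha'⟩ := riesz (F := F) ((β.flip x).comp ψ)
  refine ⟨σ a', fun b => ?_⟩
  have h1 := ha' b
  have h2 : ((β.flip x).comp ψ) b = β (b • v) x := by
    simp [ψ, LinearMap.toSpanSingleton_apply]
  rw [← h2, h1, ← map_mul, tr_sigma]

theorem normalize (hN : ∀ d : K, d ≠ 0 → σ d = d → ∃ m : K, m * σ m = d)
    (hσσ : ∀ a, σ (σ a) = a) (hsym : ∀ u v, β u v = β v u)
    (hcomp : ∀ (a : K) (u v : W), β (a • u) v = β u (σ a • v)) (v : W) (hv : β v v ≠ 0) :
    ∃ m : K, ∀ a b : K, β (a • m • v) (b • m • v) = Algebra.trace F K (σ a * b) := by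
  obtain ⟨d, key⟩ := riesz_W σ β hσσ v v
  have hd0 : d ≠ 0 := by
    intro h
    apply hv
    have := key 1
    rwa [one_smul, h, mul_zero, map_zero] at this
  have hfix : σ d = d := by
    have h0 : σ d - d = 0 := by
      apply tr_nondeg (F := F)
      intro c
      have e1 : Algebra.trace F K (c * σ d) = β (c • v) v := by
        rw [key c, ← tr_sigma σ (c * σ d), map_mul, hσσ]
      have e2 : Algebra.trace F K (c * d) = β (c • v) v := by
        have := key (σ c)
        rw [hσσ] at this
        rw [← this, hcomp, hσσ, hsym]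
      rw [mul_sub, map_sub, e1, e2, sub_self]
    exact sub_eq_zero.mp h0
  obtain ⟨m, hm⟩ := hN d⁻¹ (inv_ne_zero hd0) (by rw [map_inv₀, hfix])
  refine ⟨m, fun a b => ?_⟩
  rw [smul_smul, smul_smul, hcomp, smul_smul, hsym, key]
  have e : σ (σ (a * m) * (b * m)) * d = σ (σ a * b) := by
    rw [map_mul σ (σ (a * m)) (b * m), hσσ, map_mul σ b m, map_mul σ (σ a) b, hσσ]
    have h1 : m * σ m * d = 1 := by rw [hm, inv_mul_cancel₀ hd0]
    calc a * m * (σ b * σ m) * d = a * σ b * (m * σ m * d) := by ring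
      _ = a * σ b := by rw [h1, mul_one]
  rw [e, tr_sigma]

theorem exists_aniso (h2 : (2 : F) ≠ 0) (hsym : ∀ u v, β u v = β v u) (P : Submodule K W)
    (x y : W) (hx : x ∈ P) (hy : y ∈ P) (hxy : β x y ≠ 0) : ∃ v ∈ P, β v v ≠ 0 := by
  by_contra hcon
  have hcon' : ∀ v ∈ P, β v v = 0 := by
    intro v hv
    by_contra h
    exact hcon ⟨v, hv, h⟩
  have h1 := hcon' (x + y) (P.add_mem hx hy)
  have hxx := hcon' x hx
  have hyy := hcon' y hy
  simp only [map_add, LinearMap.add_apply] at h1
  rw [hxx, hyy, hsym y x] at h1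
  apply hxy
  have h3 : (2 : F) * β x y = 0 := by linear_combination h1
  exact (mul_eq_zero.mp h3).resolve_left h2

theorem extend_ON [Module.Finite K W]
    (hN : ∀ d : K, d ≠ 0 → σ d = d → ∃ m : K, m * σ m = d) (h2 : (2 : F) ≠ 0)
    (hσσ : ∀ a, σ (σ a) = a) (hsym : ∀ u v, β u v = β v u)
    (hnd : ∀ u, u ≠ 0 → ∃ v, β u v ≠ 0)
    (hcomp : ∀ (a : K) (u v : W), β (a • u) v = β u (σ a • v))
    {j : ℕ} (v : Fin j → W) (hv : ON σ β v) (hj : j < Module.finrank K W) :
    ∃ w : W, ON σ β (Fin.cons w v : Fin (j + 1) → W) := by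
  classical
  have hR : ∀ (i : Fin j) (x : W), ∃ a : K, ∀ b : K,
      β (b • v i) x = Algebra.trace F K (σ b * a) := fun i x => riesz_W σ β hσσ (v i) x
  choose A hA using hR
  let p : W → W := fun x => x - ∑ i, A i x • v i
  have hp1 : ∀ (x : W) (l : Fin j) (b : K), β (b • v l) (p x) = 0 := by
    intro x l b
    show β (b • v l) (x - ∑ i, A i x • v i) = 0
    rw [map_sub, map_sum, hA l x b]
    have h3 : ∀ i, β (b • v l) (A i x • v i)
        = if l = i then Algebra.trace F K (σ b * A i x) else 0 := fun i => hv l i b (A i x)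
    simp only [h3, Finset.sum_ite_eq, Finset.mem_univ, if_true, sub_self]
  let S : Submodule K W := Submodule.span K (Set.range v)
  have hS : S ≠ ⊤ := by
    intro h
    have h1 : Module.finrank K S ≤ j := by
      have h0 := finrank_range_le_card (R := K) v
      rw [Fintype.card_fin] at h0
      exact h0
    rw [h, finrank_top] at h1
    omega
  obtain ⟨x₀, hx₀⟩ : ∃ x₀, x₀ ∉ S := by
    by_contra hcon
    apply hS
    rw [eq_top_iff]
    intro x _
    by_contra hx
    exact hcon ⟨x, hx⟩
  have hpS : ∀ x, x - p x ∈ S := by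
    intro x
    show x - (x - ∑ i, A i x • v i) ∈ S
    rw [sub_sub_cancel]
    exact Submodule.sum_mem _
      (fun i _ => Submodule.smul_mem _ _ (Submodule.subset_span ⟨i, rfl⟩))
  have hy₀ : p x₀ ≠ 0 := by
    intro h
    apply hx₀
    have := hpS x₀
    rwa [h, sub_zero] at this
  let P : Submodule K W :=
    { carrier := {y | ∀ (l : Fin j) (b : K), β (b • v l) y = 0}
      add_mem' := by
        intro y z hy hz l b
        rw [map_add, hy l b, hz l b, add_zero]
      zero_mem' := by
        intro l b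
        rw [map_zero]
      smul_mem' := by
        intro c y hy l b
        rw [hsym, hcomp, smul_smul, hsym]
        exact hy l (σ c * b) }
  have hpP : ∀ x, p x ∈ P := fun x l b => hp1 x l b
  have hPz : ∀ y ∈ P, ∀ z, β y (p z) = β y z := by
    intro y hy z
    show β y (z - ∑ i, A i z • v i) = β y z
    rw [map_sub, map_sum]
    have h3 : ∀ i ∈ Finset.univ, β y (A i z • v i) = 0 := fun i _ => by
      rw [hsym]; exact hy i (A i z)
    rw [Finset.sum_eq_zero h3, sub_zero]
  obtain ⟨z, hz⟩ := hnd (p x₀) hy₀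
  have hz' : β (p x₀) (p z) ≠ 0 := by
    rw [hPz (p x₀) (hpP x₀) z]; exact hz
  obtain ⟨v', hv'P, hv'⟩ := exists_aniso β h2 hsym P (p x₀) (p z) (hpP x₀) (hpP z) hz'
  obtain ⟨m, hm⟩ := normalize σ β hN hσσ hsym hcomp v' hv'
  refine ⟨m • v', ?_⟩
  have hwP : ∀ b : K, b • m • v' ∈ P := fun b => P.smul_mem _ (P.smul_mem _ hv'P)
  intro i l a b
  refine Fin.cases ?_ (fun i' => ?_) i <;> refine Fin.cases ?_ (fun l' => ?_) l
  · simp only [Fin.cons_zero, if_true]
    exact hm a b
  · simp only [Fin.cons_zero, Fin.cons_succ]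
    rw [if_neg (Fin.succ_ne_zero l').symm, hsym]
    exact hwP a l' b
  · simp only [Fin.cons_zero, Fin.cons_succ]
    rw [if_neg (Fin.succ_ne_zero i')]
    exact hwP b i' a
  · simp only [Fin.cons_succ]
    rw [hv i' l' a b]
    simp only [Fin.succ_inj]

theorem exists_ON [Module.Finite K W]
    (hN : ∀ d : K, d ≠ 0 → σ d = d → ∃ m : K, m * σ m = d) (h2 : (2 : F) ≠ 0)
    (hσσ : ∀ a, σ (σ a) = a) (hsym : ∀ u v, β u v = β v u)
    (hnd : ∀ u, u ≠ 0 → ∃ v, β u v ≠ 0)
    (hcomp : ∀ (a : K) (u v : W), β (a • u) v = β u (σ a • v)) :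
    ∀ j : ℕ, j ≤ Module.finrank K W → ∃ v : Fin j → W, ON σ β v := by
  intro j
  induction j with
  | zero => intro _; exact ⟨Fin.elim0, fun i => i.elim0⟩
  | succ j ih =>
    intro hj
    obtain ⟨v, hv⟩ := ih (by omega)
    obtain ⟨w, hw⟩ := extend_ON σ β hN h2 hσσ hsym hnd hcomp v hv (by omega)
    exact ⟨_, hw⟩

theorem ON_linearIndependent (hσσ : ∀ a, σ (σ a) = a) {j : ℕ} (v : Fin j → W)
    (hv : ON σ β v) : LinearIndependent K v := by
  classical
  rw [Fintype.linearIndependent_iff]
  intro g hg l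
  apply tr_nondeg (F := F)
  intro b
  have h1 : β (σ b • v l) (∑ i, g i • v i) = 0 := by rw [hg, map_zero]
  rw [map_sum] at h1
  have h3 : ∀ i, β (σ b • v l) (g i • v i)
      = if l = i then Algebra.trace F K (σ (σ b) * g i) else 0 := fun i => hv l i _ _
  simp only [h3, Finset.sum_ite_eq, Finset.mem_univ, if_true, hσσ] at h1
  exact h1

theorem ON_formula [Module.Finite K W] (hσσ : ∀ a, σ (σ a) = a) {k : ℕ}
    (hk : Module.finrank K W = k) (v : Fin k → W) (hv : ON σ β v) :
    ∃ E : W ≃ₗ[F] (Fin k → K), ∀ x y,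
      β x y = ∑ i, Algebra.trace F K (σ (E x i) * E y i) := by
  classical
  have hli := ON_linearIndependent σ β hσσ v hv
  let b := basisOfLinearIndependentOfCardEqFinrank' v hli (by simp [hk])
  have hb : ⇑b = v := coe_basisOfLinearIndependentOfCardEqFinrank' v hli _
  refine ⟨b.equivFun.restrictScalars F, fun x y => ?_⟩
  have hx := b.sum_equivFun x
  have hy := b.sum_equivFun y
  conv_lhs => rw [← hx, ← hy]
  rw [map_sum]
  refine Finset.sum_congr rfl (fun l _ => ?_)
  rw [map_sum, LinearMap.sum_apply, hb]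
  have h3 : ∀ i, β (b.equivFun x i • v i) (b.equivFun y l • v l)
      = if i = l then Algebra.trace F K (σ (b.equivFun x i) * b.equivFun y l) else 0 :=
    fun i => hv i l _ _
  simp only [h3, Finset.sum_ite_eq', Finset.mem_univ, if_true]
  rfl

end form

end Cfsg.Agent.Lib.Helper27.QSim
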