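import Mathlib
import Cfsg.Agent.Lib.Helper58.QSim.MonoDefs
import Cfsg.Agent.Lib.Helper27.QSim.HMonoON

/-!
# QSIM (S5981): package [HMONO]

The monomial group `U ≀ S_k` (`U` the norm-one elements of `K`) acting on `Fin k → K` by
isometries of the form `∑ i, Tr (σ (x i) * y i)`, transported to `W` along an orthonormal
`K`-basis.
-/

set_option autoImplicit false
set_option linter.unusedSectionVars false
set_option linter.unusedVariables false

namespace Cfsg.Agent.Lib.Helper27.QSim

open Module Cfsg.Agent.Lib.Helper58.QSim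

universe u

section mono

variable {F K : Type u} [Field F] [Field K] [Algebra F K] (σ : K ≃ₐ[F] K) (k : ℕ)

/-- The norm-one elements. -/
abbrev U1 : Type u := {u : K // u * σ u = 1}

/-- The monomial map `x ↦ (j ↦ u j * x (π⁻¹ j))`. -/
def monoFun (u : Fin k → U1 σ) (π : Equiv.Perm (Fin k)) : (Fin k → K) ≃ₗ[F] (Fin k → K) where
  toFun x := fun j => (u j : K) * x (π.symm j)
  map_add' x y := by
    funext j
    simp [mul_add]
  map_smul' c x := by
    funext j
    simp
  invFun y := fun j => σ (u (π j) : K) * y (π j)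
  left_inv x := by
    funext j
    show σ (u (π j) : K) * ((u (π j) : K) * x (π.symm (π j))) = x j
    rw [Equiv.symm_apply_apply, ← mul_assoc, mul_comm (σ (u (π j) : K)), (u (π j)).2, one_mul]
  right_inv y := by
    funext j
    show (u j : K) * (σ (u (π (π.symm j)) : K) * y (π (π.symm j))) = y j
    rw [Equiv.apply_symm_apply, ← mul_assoc, (u j).2, one_mul]

theorem monoFun_apply (u : Fin k → U1 σ) (π : Equiv.Perm (Fin k)) (x : Fin k → K) (j : Fin k) :
    monoFun σ k u π x j = (u j : K) * x (π.symm j) := rfl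

theorem u1_mul (a b : U1 σ) : (a : K) * b * σ ((a : K) * b) = 1 := by
  rw [map_mul]
  calc (a : K) * b * (σ a * σ b) = ((a : K) * σ a) * ((b : K) * σ b) := by ring
    _ = 1 := by rw [a.2, b.2, one_mul]

theorem u1_inv (hσσ : ∀ a, σ (σ a) = a) (a : U1 σ) : σ (a : K) * σ (σ (a : K)) = 1 := by
  rw [hσσ, mul_comm]; exact a.2

theorem monoFun_mul (u u' : Fin k → U1 σ) (π π' : Equiv.Perm (Fin k)) :
    monoFun σ k u π * monoFun σ k u' π'
      = monoFun σ k (fun j => ⟨(u j : K) * u' (π.symm j), u1_mul σ (u j) (u' (π.symm j))⟩)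
          (π * π') := by
  apply LinearEquiv.ext
  intro x
  funext j
  show (u j : K) * ((u' (π.symm j) : K) * x (π'.symm (π.symm j)))
    = (u j : K) * u' (π.symm j) * x (π'.symm (π.symm j))
  rw [mul_assoc]

theorem monoFun_one : monoFun (F := F) σ k (fun _ => ⟨1, by rw [map_one, mul_one]⟩) 1 = 1 := by
  apply LinearEquiv.ext
  intro x
  funext j
  show (1 : K) * x j = x j
  rw [one_mul]

theorem monoFun_inv (hσσ : ∀ a, σ (σ a) = a) (u : Fin k → U1 σ) (π : Equiv.Perm (Fin k)) :
    (monoFun σ k u π)⁻¹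
      = monoFun σ k (fun j => ⟨σ (u (π j) : K), u1_inv σ hσσ (u (π j))⟩) π⁻¹ := by
  symm
  apply eq_inv_of_mul_eq_one_right
  apply LinearEquiv.ext
  intro x
  funext j
  show (u j : K) * (σ (u (π (π.symm j)) : K) * x (π (π.symm j))) = x j
  rw [Equiv.apply_symm_apply, ← mul_assoc, (u j).2, one_mul]

theorem monoFun_inj {u u' : Fin k → U1 σ} {π π' : Equiv.Perm (Fin k)}
    (h : monoFun (F := F) σ k u π = monoFun σ k u' π') : u = u' ∧ π = π' := by
  classical
  have hu0 : ∀ j, (u j : K) ≠ 0 := by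
    intro j h0
    have := (u j).2
    rw [h0, zero_mul] at this
    exact zero_ne_one this
  have key : ∀ j, π'.symm j = π.symm j ∧ (u j : K) = u' j := by
    intro j
    have h1 := congrFun (congrArg (fun f : (Fin k → K) ≃ₗ[F] (Fin k → K) =>
      f (Pi.single (π.symm j) 1)) h) j
    simp only [monoFun_apply, Pi.single_eq_same, mul_one] at h1
    by_cases hp : π'.symm j = π.symm j
    · rw [hp, Pi.single_eq_same, mul_one] at h1
      exact ⟨hp, h1⟩
    · rw [Pi.single_eq_of_ne hp, mul_zero] at h1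
      exact absurd h1 (hu0 j)
  have hπ : π = π' := by
    have h3 : π.symm = π'.symm := Equiv.ext (fun j => (key j).1.symm)
    exact Equiv.symm_bijective.injective h3
  refine ⟨?_, hπ⟩
  funext j
  exact Subtype.ext (key j).2

/-- The monomial group. -/
def monoGrp (hσσ : ∀ a, σ (σ a) = a) : Subgroup ((Fin k → K) ≃ₗ[F] (Fin k → K)) where
  carrier := {f | ∃ (u : Fin k → U1 σ) (π : Equiv.Perm (Fin k)), f = monoFun σ k u π}
  mul_mem' := by
    rintro _ _ ⟨u, π, rfl⟩ ⟨u', π', rfl⟩
    exact ⟨_, _, monoFun_mul σ k u u' π π'⟩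
  one_mem' := ⟨_, _, (monoFun_one σ k).symm⟩
  inv_mem' := by
    rintro _ ⟨u, π, rfl⟩
    exact ⟨_, _, monoFun_inv σ k hσσ u π⟩

theorem card_monoGrp [Finite K] (hσσ : ∀ a, σ (σ a) = a) :
    Nat.card (monoGrp (F := F) σ k hσσ) = Nat.card (U1 σ) ^ k * k.factorial := by
  have h1 : Nat.card ((Fin k → U1 σ) × Equiv.Perm (Fin k))
      = Nat.card (monoGrp (F := F) σ k hσσ) := by
    apply Nat.card_eq_of_bijective
      (fun p => (⟨monoFun σ k p.1 p.2, p.1, p.2, rfl⟩ : monoGrp (F := F) σ k hσσ))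
    constructor
    · rintro ⟨u, π⟩ ⟨u', π'⟩ h
      have h' : monoFun (F := F) σ k u π = monoFun σ k u' π' := congrArg Subtype.val h
      obtain ⟨e1, e2⟩ := monoFun_inj σ k h'
      rw [e1, e2]
    · rintro ⟨f, u, π, rfl⟩
      exact ⟨(u, π), rfl⟩
  rw [← h1, Nat.card_prod, Nat.card_pi, Nat.card_perm]
  simp

theorem monoFun_isom (u : Fin k → U1 σ) (π : Equiv.Perm (Fin k)) (x y : Fin k → K) :
    ∑ i, Algebra.trace F K (σ (monoFun σ k u π x i) * monoFun σ k u π y i)
      = ∑ i, Algebra.trace F K (σ (x i) * y i) := by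
  have h1 : ∀ i, σ (monoFun σ k u π x i) * monoFun σ k u π y i
      = σ (x (π.symm i)) * y (π.symm i) := by
    intro i
    rw [monoFun_apply, monoFun_apply, map_mul]
    have h := (u i).2
    calc σ (u i : K) * σ (x (π.symm i)) * ((u i : K) * y (π.symm i))
        = ((u i : K) * σ (u i : K)) * (σ (x (π.symm i)) * y (π.symm i)) := by ring
      _ = σ (x (π.symm i)) * y (π.symm i) := by rw [h, one_mul]
  simp only [h1]
  exact Equiv.sum_comp π.symm (fun i => Algebra.trace F K (σ (x i) * y i))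

end mono

/-- **[HMONO]** -/
theorem pkgHMono_of (hN : PkgNorm.{u}) : PkgHMono.{u} := by
  intro F K W _ _ _ _ _ _ _ _ _ _ σ β e k hodd hcard hσσ hσne hsym hnd hcomp hk
  classical
  have h2 : (2 : F) ≠ 0 := by
    apply Ring.two_ne_zero
    intro h
    have h3 := FiniteField.even_card_of_char_two h
    rcases hodd with ⟨t, ht⟩
    omega
  have hKodd : Odd (Fintype.card K) := by rw [hcard]; exact hodd.pow
  have hKsq : Fintype.card K = (Fintype.card F ^ e) ^ 2 := by rw [hcard, ← pow_mul, mul_comm]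
  obtain ⟨hU, hNorm⟩ := hN K σ.toRingEquiv (Fintype.card F ^ e) hKodd hKsq hσσ hσne
  have hU' : Nat.card (U1 σ) = Fintype.card F ^ e + 1 := hU
  obtain ⟨v, hv⟩ := exists_ON σ β hNorm h2 hσσ hsym hnd hcomp k (le_of_eq hk.symm)
  obtain ⟨E, hE⟩ := ON_formula σ β hσσ hk v hv
  let c : ((Fin k → K) ≃ₗ[F] (Fin k → K)) →* (W ≃ₗ[F] W) :=
    { toFun := fun f => (E.trans f).trans E.symm
      map_one' := by
        apply LinearEquiv.ext
        intro x
        simp
      map_mul' := by
        intro f g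
        apply LinearEquiv.ext
        intro x
        simp }
  have hc : Function.Injective c := by
    intro f g h
    apply LinearEquiv.ext
    intro x
    have h1 := congrArg (fun m : W ≃ₗ[F] W => E (m (E.symm x))) h
    simpa [c] using h1
  refine ⟨(monoGrp σ k hσσ).map c, ?_, ?_⟩
  · rintro _ ⟨f, ⟨u, π, rfl⟩, rfl⟩ x y
    rw [hE, hE]
    have h1 : ∀ z : W, E (c (monoFun σ k u π) z) = monoFun σ k u π (E z) := by
      intro z
      simp [c]
    simp only [h1]
    exact monoFun_isom σ k u π (E x) (E y)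
  · rw [Subgroup.card_map_of_injective hc, card_monoGrp, hU']

end Cfsg.Agent.Lib.Helper27.QSim
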